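import Cfsg.Agent.Lib.PermComp.OutP.J1C.Data

set_option autoImplicit false
set_option maxRecDepth 100000
set_option maxHeartbeats 0

namespace Cfsg.Agent.Lib.PermComp.OutP.J1C

open Cfsg Cfsg.Agent.Lib.PermComp.OutP
open Cfsg.Agent.Lib.PermComp.Core (force)
open Cfsg.Agent.Lib.PermComp.Kron (rangeAll rangeAll_spec)

theorem zinv_ck : rangeAll (fun g => rangeAll (fun q => Nat.beq (F g (F g q)) q) 0 266) 42 6 = true := by decide +kernel
theorem t2_ck : rangeAll (fun q => Nat.beq (F 3 (F 3 q)) q) 0 266 = true := by decide +kernel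
theorem t1_ck : F 3 0 ≠ 0 := by decide +kernel
theorem cm0_ck : rangeAll (fun q => Nat.beq (F 16 (F 3 q)) (F 3 (F 16 q))) 0 266 = true := by decide +kernel
theorem cm1_ck : rangeAll (fun q => Nat.beq (F 29 (F 3 q)) (F 3 (F 29 q))) 0 266 = true := by decide +kernel
theorem om_ck : rangeAll (fun j => Core.ifB (Nat.blt (OM j) 266) (Nat.beq (OI (OM j)) j)) 0 20 = true := by decide +kernel
theorem rc0_ck : rangeAll (fun j => Core.ifB (Nat.blt (Core.app 5 31 (Core.nthN cR_T 0) j) 20) (Nat.beq (F 16 (OM j)) (OM (Core.app 5 31 (Core.nthN cR_T 0) j)))) 0 20 = true := by decide +kernel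
theorem d10_ck : rangeAll (fun j => Nat.beq (Core.app 5 31 (Core.nthN cD_T 0) j) (Core.app 5 31 (Core.nthN cR_T 0) j)) 0 20 = true := by decide +kernel
theorem d20_ck : rangeAll (fun j => Nat.beq (Core.app 5 31 (Core.nthN cD_T 0) (20 + j)) (20 + Core.app 5 31 (Core.nthN cM_T 0) j)) 0 7 = true := by decide +kernel
theorem rc1_ck : rangeAll (fun j => Core.ifB (Nat.blt (Core.app 5 31 (Core.nthN cR_T 1) j) 20) (Nat.beq (F 29 (OM j)) (OM (Core.app 5 31 (Core.nthN cR_T 1) j)))) 0 20 = true := by decide +kernel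
theorem d11_ck : rangeAll (fun j => Nat.beq (Core.app 5 31 (Core.nthN cD_T 1) j) (Core.app 5 31 (Core.nthN cR_T 1) j)) 0 20 = true := by decide +kernel
theorem d21_ck : rangeAll (fun j => Nat.beq (Core.app 5 31 (Core.nthN cD_T 1) (20 + j)) (20 + Core.app 5 31 (Core.nthN cM_T 1) j)) 0 7 = true := by decide +kernel
noncomputable def rcF : Fin 2 → Nat := fun i => Core.nthN cR_T i
noncomputable def mcF : Fin 2 → Nat := fun i => Core.nthN cM_T i
noncomputable def dcF : Fin 2 → Nat := fun i => Core.nthN cD_T i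
def gkF : Fin 2 → Nat := fun i => if i.val = 0 then 16 else 29
theorem cR_check : Core.checkAll cR_n cR_w cR_mask cR_L cR_maskL cR_idc (List.ofFn rcF) cR_prog cR_levels = true := by decide +kernel
theorem cR_order : Core.orderC cR_levels = 120 := by decide +kernel
theorem cM_check : Core.checkAll cM_n cM_w cM_mask cM_L cM_maskL cM_idc (List.ofFn mcF) cM_prog cM_levels = true := by decide +kernel
theorem cM_order : Core.orderC cM_levels = 120 := by decide +kernel
theorem cD_check : Core.checkAll cD_n cD_w cD_mask cD_L cD_maskL cD_idc (List.ofFn dcF) cD_prog cD_levels = true := by decide +kernel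
theorem cD_order : Core.orderC cD_levels = 120 := by decide +kernel

end Cfsg.Agent.Lib.PermComp.OutP.J1C
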