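import Cfsg.Agent.Lib.PermComp.OutP.J1C.Data

set_option autoImplicit false
set_option maxRecDepth 100000
set_option maxHeartbeats 0

namespace Cfsg.Agent.Lib.PermComp.OutP.J1C

open Cfsg Cfsg.Agent.Lib.PermComp.OutP
open Cfsg.Agent.Lib.PermComp.Core (force)
open Cfsg.Agent.Lib.PermComp.Kron (rangeAll rangeAll_spec)

theorem srt_c0 : sortR (fun i => DD.key n F i) 0 1462 = true := by decide +kernel

end Cfsg.Agent.Lib.PermComp.OutP.J1C
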