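import Cfsg.Agent.Lib.PermComp.OutP.J1C.Data

set_option autoImplicit false
set_option maxRecDepth 100000
set_option maxHeartbeats 0

namespace Cfsg.Agent.Lib.PermComp.OutP.J1C

open Cfsg Cfsg.Agent.Lib.PermComp.OutP
open Cfsg.Agent.Lib.PermComp.Core (force)
open Cfsg.Agent.Lib.PermComp.Kron (rangeAll rangeAll_spec)

theorem hlt_ck : rangeAll (fun g => Core.allL (fun a => Nat.blt a g) (prog g)) 0 48 = true := by decide +kernel

theorem hp_2 : progR F 2 (prog 2) 0 266 = true := by decide +kernel
theorem hp_3 : progR F 3 (prog 3) 0 266 = true := by decide +kernel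
theorem hp_4 : progR F 4 (prog 4) 0 266 = true := by decide +kernel
theorem hp_5 : progR F 5 (prog 5) 0 266 = true := by decide +kernel
theorem hp_6 : progR F 6 (prog 6) 0 266 = true := by decide +kernel
theorem hp_7 : progR F 7 (prog 7) 0 266 = true := by decide +kernel
theorem hp_8 : progR F 8 (prog 8) 0 266 = true := by decide +kernel
theorem hp_9 : progR F 9 (prog 9) 0 266 = true := by decide +kernel
theorem hp_10 : progR F 10 (prog 10) 0 266 = true := by decide +kernel
theorem hp_11 : progR F 11 (prog 11) 0 266 = true := by decide +kernel
theorem hp_12 : progR F 12 (prog 12) 0 266 = true := by decide +kernel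
theorem hp_13 : progR F 13 (prog 13) 0 266 = true := by decide +kernel
theorem hp_14 : progR F 14 (prog 14) 0 266 = true := by decide +kernel
theorem hp_15 : progR F 15 (prog 15) 0 266 = true := by decide +kernel
theorem hp_16 : progR F 16 (prog 16) 0 266 = true := by decide +kernel
theorem hp_17 : progR F 17 (prog 17) 0 266 = true := by decide +kernel
theorem hp_18 : progR F 18 (prog 18) 0 266 = true := by decide +kernel
theorem hp_19 : progR F 19 (prog 19) 0 266 = true := by decide +kernel
theorem hp_20 : progR F 20 (prog 20) 0 266 = true := by decide +kernel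
theorem hp_21 : progR F 21 (prog 21) 0 266 = true := by decide +kernel
theorem hp_22 : progR F 22 (prog 22) 0 266 = true := by decide +kernel
theorem hp_23 : progR F 23 (prog 23) 0 266 = true := by decide +kernel
theorem hp_24 : progR F 24 (prog 24) 0 266 = true := by decide +kernel
theorem hp_25 : progR F 25 (prog 25) 0 266 = true := by decide +kernel
theorem hp_26 : progR F 26 (prog 26) 0 266 = true := by decide +kernel
theorem hp_27 : progR F 27 (prog 27) 0 266 = true := by decide +kernel
theorem hp_28 : progR F 28 (prog 28) 0 266 = true := by decide +kernel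
theorem hp_29 : progR F 29 (prog 29) 0 266 = true := by decide +kernel
theorem hp_30 : progR F 30 (prog 30) 0 266 = true := by decide +kernel
theorem hp_31 : progR F 31 (prog 31) 0 266 = true := by decide +kernel
theorem hp_32 : progR F 32 (prog 32) 0 266 = true := by decide +kernel
theorem hp_33 : progR F 33 (prog 33) 0 266 = true := by decide +kernel
theorem hp_34 : progR F 34 (prog 34) 0 266 = true := by decide +kernel
theorem hp_35 : progR F 35 (prog 35) 0 266 = true := by decide +kernel
theorem hp_36 : progR F 36 (prog 36) 0 266 = true := by decide +kernel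
theorem hp_37 : progR F 37 (prog 37) 0 266 = true := by decide +kernel
theorem hp_38 : progR F 38 (prog 38) 0 266 = true := by decide +kernel
theorem hp_39 : progR F 39 (prog 39) 0 266 = true := by decide +kernel
theorem hp_40 : progR F 40 (prog 40) 0 266 = true := by decide +kernel
theorem hp_41 : progR F 41 (prog 41) 0 266 = true := by decide +kernel
theorem hp_42 : progR F 42 (prog 42) 0 266 = true := by decide +kernel
theorem hp_43 : progR F 43 (prog 43) 0 266 = true := by decide +kernel
theorem hp_44 : progR F 44 (prog 44) 0 266 = true := by decide +kernel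
theorem hp_45 : progR F 45 (prog 45) 0 266 = true := by decide +kernel
theorem hp_46 : progR F 46 (prog 46) 0 266 = true := by decide +kernel
theorem hp_47 : progR F 47 (prog 47) 0 266 = true := by decide +kernel

end Cfsg.Agent.Lib.PermComp.OutP.J1C
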