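import Cfsg.Agent.Lib.PermComp.OutP.J1C.ChkT0
import Cfsg.Agent.Lib.PermComp.OutP.J1C.ChkS0
import Cfsg.Agent.Lib.PermComp.OutP.J1C.ChkL

set_option autoImplicit false
set_option maxRecDepth 100000
set_option maxHeartbeats 0

namespace Cfsg.Agent.Lib.PermComp.OutP.J1C

open Cfsg Cfsg.Agent.Lib.PermComp.OutP
open Cfsg.Agent.Lib.PermComp.Core (force)
open Cfsg.Agent.Lib.PermComp.Kron (rangeAll rangeAll_spec)

theorem hlt : ∀ g < 48, 2 ≤ g → ∀ a ∈ prog g, a < g := by
  intro g hg _ a ha
  have h := range_of (p := fun g => Core.allL (fun a => Nat.blt a g) (prog g)) (lo := 0) (len := 48) (hi := 48) hlt_ck rfl g (Nat.zero_le _) hg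
  exact blt_lt ((Core.allL_eq_true _ _).1 h a ha)

theorem hp : ∀ g < 48, 2 ≤ g → ∀ q < 266, F g q = wApp F (prog g) q := by
  intro g hg h2 q hq
  have h : progR F g (prog g) 0 266 = true := by
    interval_cases g
    · exact hp_2
    · exact hp_3
    · exact hp_4
    · exact hp_5
    · exact hp_6
    · exact hp_7
    · exact hp_8
    · exact hp_9
    · exact hp_10
    · exact hp_11
    · exact hp_12
    · exact hp_13
    · exact hp_14
    · exact hp_15
    · exact hp_16
    · exact hp_17
    · exact hp_18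
    · exact hp_19
    · exact hp_20
    · exact hp_21
    · exact hp_22
    · exact hp_23
    · exact hp_24
    · exact hp_25
    · exact hp_26
    · exact hp_27
    · exact hp_28
    · exact hp_29
    · exact hp_30
    · exact hp_31
    · exact hp_32
    · exact hp_33
    · exact hp_34
    · exact hp_35
    · exact hp_36
    · exact hp_37
    · exact hp_38
    · exact hp_39
    · exact hp_40
    · exact hp_41
    · exact hp_42
    · exact hp_43
    · exact hp_44
    · exact hp_45
    · exact hp_46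
    · exact hp_47
  exact Nat.eq_of_beq_eq_true (rangeAll_spec h q (Nat.zero_le _) (by omega))

theorem hsort : ∀ j, j + 1 < DD.L → DD.key n F j < DD.key n F (j + 1) := by
  have h : ∀ j, 0 ≤ j → j < 1462 → DD.key n F j < DD.key n F (j + 1) := by
    exact (fun j h1 h2 => sortR_spec srt_c0 j h1 (by omega))
  intro j hj
  have hL : DD.L = 1463 := rfl
  exact h j (Nat.zero_le _) (by omega)

theorem hD : DD.OK n 48 F where
  ht0 := by decide +kernel
  hcnt := by decide +kernel
  hoff := by decide +kernel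
  hQ := by
    have h : Core.allL (fun q => Nat.blt q n) DD.Q = true := by decide +kernel
    exact fun q hq => blt_lt ((Core.allL_eq_true _ _).1 h q hq)
  hinvol := by
    intro g h1 h2 p hp
    have h := rangeAll_spec zinv_ck g h1 (by simpa [DD] using h2)
    exact Nat.eq_of_beq_eq_true (rangeAll_spec h p (Nat.zero_le _) (by simpa [n] using hp))
  hsort := hsort

/-- The main theorem of the instance. -/
theorem cent_main {H : Subgroup (Equiv.Perm (Fin 266))} [Finite H] (hcard : Nat.card H = 175560)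
    (hX : ∀ g < 2, Has F H g) {β : Type*} [Finite β] (e2 : β ≃ Fin 7) (b : Fin 2 → Equiv.Perm β)
    (hrb : ∀ i, Core.Rep 5 31 e2 (mcF i) (b i)) :
    ∃ z, ∃ hz : z ∈ H, Rp (F 3) z ∧ z * z = 1 ∧ z ≠ 1 ∧
      Nonempty (Subgroup.centralizer {(⟨z, hz⟩ : H)} ≃* famCl b) := by
  obtain ⟨E, hE⟩ := exists_family (n := 266) (F := F) (H := H) (m0 := 2) (m := 48) hX prog hlt hp
  have ht := hE 3 (by norm_num)
  have hLc : 120 * DD.L = Nat.card H := by
    rw [hcard]
    rfl
  have hom : ∀ j < 20, OM j < 266 ∧ OI (OM j) = j := by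
    intro j hj
    have h := rangeAll_spec om_ck j (Nat.zero_le _) (by omega)
    rw [Core.ifB_eq_true] at h
    exact ⟨blt_lt h.1, Nat.eq_of_beq_eq_true h.2⟩
  have hrc : ∀ i, ∀ j < 20, Core.app 5 31 (rcF i) j < 20 ∧ F (gkF i) (OM j) = OM (Core.app 5 31 (rcF i) j) := by
    intro i j hj
    have h : ∀ i : Fin 2, rangeAll (fun j => Core.ifB (Nat.blt (Core.app 5 31 (rcF i) j) 20) (Nat.beq (F (gkF i) (OM j)) (OM (Core.app 5 31 (rcF i) j)))) 0 20 = true := by
      intro i
      fin_cases i
      · exact rc0_ck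
      · exact rc1_ck
    have h2 := rangeAll_spec (h i) j (Nat.zero_le _) (by omega)
    rw [Core.ifB_eq_true] at h2
    exact ⟨blt_lt h2.1, Nat.eq_of_beq_eq_true h2.2⟩
  have hd1 : ∀ i, ∀ j < 20, Core.app 5 31 (dcF i) j = Core.app 5 31 (rcF i) j := by
    intro i j hj
    have h : ∀ i : Fin 2, rangeAll (fun j => Nat.beq (Core.app 5 31 (dcF i) j) (Core.app 5 31 (rcF i) j)) 0 20 = true := by
      intro i
      fin_cases i
      · exact d10_ck
      · exact d11_ck
    exact Nat.eq_of_beq_eq_true (rangeAll_spec (h i) j (Nat.zero_le _) (by omega))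
  have hd2 : ∀ i, ∀ j < 7, Core.app 5 31 (dcF i) (20 + j) = 20 + Core.app 5 31 (mcF i) j := by
    intro i j hj
    have h : ∀ i : Fin 2, rangeAll (fun j => Nat.beq (Core.app 5 31 (dcF i) (20 + j)) (20 + Core.app 5 31 (mcF i) j)) 0 7 = true := by
      intro i
      fin_cases i
      · exact d20_ck
      · exact d21_ck
    exact Nat.eq_of_beq_eq_true (rangeAll_spec (h i) j (Nat.zero_le _) (by omega))
  have hcomm : ∀ i, ∀ q < 266, F (gkF i) (F DD.t0 q) = F DD.t0 (F (gkF i) q) := by
    intro i q hq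
    have h : ∀ i : Fin 2, rangeAll (fun q => Nat.beq (F (gkF i) (F DD.t0 q)) (F DD.t0 (F (gkF i) q))) 0 266 = true := by
      intro i
      fin_cases i
      · exact cm0_ck
      · exact cm1_ck
    exact Nat.eq_of_beq_eq_true (rangeAll_spec (h i) q (Nat.zero_le _) (by omega))
  have hgk : ∀ i, gkF i < 48 := by
    intro i
    fin_cases i <;> decide
  obtain ⟨e⟩ := cent_iso_codes (n := 266) (m := 48) (F := F) (E := E) (H := H) (D := DD) (c := 120) hE hD hLc (by decide) gkF hgk hcomm
    (s := 20) (k := 7) (W := 5) (mask := 31) OM OI hom rcF mcF dcF hrc hd1 hd2 e2 b hrb cR_check cR_order cM_check cM_order cD_check cD_order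
  refine ⟨E DD.t0, (hE _ hD.ht0).1, ht.2, ?_, ?_, ⟨e⟩⟩
  · exact mul_self_of_check ht.2 fun p hp => Nat.eq_of_beq_eq_true (rangeAll_spec t2_ck p (Nat.zero_le _) (by omega))
  · intro h1
    have h2 := ht.2 0 (by norm_num)
    change F 3 0 = _ at h2
    have h3 : E 3 = 1 := h1
    rw [h3] at h2
    exact t1_ck h2

end Cfsg.Agent.Lib.PermComp.OutP.J1C
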